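import Cfsg.Agent.H775.RG.FmsGu
import Cfsg.Agent.H680.RG.FmCore
import Cfsg.Agent.H481.RG.WittGU
import Cfsg.Agent.H689.RG.Dual
import Cfsg.Agent.H127.Rg.SymSeq

/-!
# S5714, TEAM RG, task 4545 (helper775): `fms_gu`
-/

set_option autoImplicit false

namespace Cfsg.Agent.H775.RG

open Cfsg Cfsg.Agent.H178.RG
open Polynomial

theorem fms_gu {F : Type} [Field F] [Fintype F] (n q : ℕ) (hF : Fintype.card F = q ^ 2) :
    FMS q ((Units.coeHom (Matrix (Fin n) (Fin n) F)).comp (GU n F q).subtype) :=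
  fms_gu_of n q hF
    (fun f S hS h => H178.RG.fm_form _ (H481.RG.witt_gu n q hF) f S hS h)
    (fun h => H689.RG.symSeq_of _ (isForm_herm n hF) (herm_inv n q) h)
    (fun x => H689.RG.dual_charpoly _ (isForm_herm n hF) (herm_inv n q) x)
    (fun hf h0 _ he => H127.Rg.card_symSeq one_ne_zero hf h0 he (Or.inl hF.symm))

end Cfsg.Agent.H775.RG
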